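import Cfsg.Agent.Gate.Fi22Y
import Cfsg.Agent.Spor.Fi22Y

set_option autoImplicit false
open Cfsg Cfsg.Agent

theorem Cfsg.Agent.Cond.Fi22Y.{u} : Gate.Fi22Y.{u} := ⟨fun hD hp ht => Cfsg.Lib.Spor.Fi.fi22Y hD hp ht⟩
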