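import Cfsg.Agent.Gate.MitTv
import Cfsg.Agent.Mit.TvTwo

set_option autoImplicit false

theorem Cfsg.Agent.Cond.MitTv.{u} : Cfsg.Agent.Gate.MitTv.{u} :=
  ⟨fun _ hP hI hN => Cfsg.Lib.Mit.tv_classification hP hI hN⟩
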