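import Cfsg.Agent.Gate.ONanAb
import Cfsg.Agent.Perm.ONanCore

set_option autoImplicit false

universe u

theorem Cfsg.Agent.Cond.ONanAb : Cfsg.Agent.Gate.ONanAb.{u} :=
  ⟨fun _ _ _ _ _ _ => Cfsg.Lib.Perm.ONan.ab⟩
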