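import Cfsg.Agent.Gate.S0489
import Cfsg.Agent.Gate.S0490
import Cfsg.Agent.Ngrp.MinSimpleRed

set_option autoImplicit false
open Cfsg Cfsg.Agent Cfsg.Lib.Ngrp

/-- S0489, conditional on the criterion by coprime triples. -/
theorem Cfsg.Agent.Cond.S0489.{u} [Gate.S0490.{u}] : Gate.S0489.{u} := ⟨by
  intro G _ _ h
  by_contra hG
  obtain ⟨a, b, c, ha, -, -, h1, h2, h3, e⟩ := (Gate.S0490.out (G := G)).1 hG
  have hc : a * b = c⁻¹ := eq_inv_of_mul_eq_one_left e
  refine not_isSolvable_of_pair (K := Subgroup.closure ({a, b} : Set G))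
    (Subgroup.subset_closure (by simp)) (Subgroup.subset_closure (by simp)) ha h1 ?_ (h a b)
  rw [hc, orderOf_inv]
  exact Nat.Coprime.mul_right h3.symm h2.symm⟩
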