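import Cfsg.Agent.Gate.S0490
import Cfsg.Agent.Ngrp.Triples

set_option autoImplicit false
open Cfsg Cfsg.Agent Cfsg.Lib.Ngrp

/-- S0490, conditional on the list of the minimal simple groups. -/
theorem Cfsg.Agent.Cond.S0490.{u} [Gate.MinSimple.{u}] : Gate.S0490.{u} := ⟨by
  intro G _ _
  refine ⟨nonsolvable_induction (P := fun G _ _ => HasCoprimeTriple G)
    (fun G _ _ H h => h.of_injective H.subtype H.subtype_injective)
    (fun G _ _ N _ p hp _ hN _ _ h => h.of_quotient N hp hN)
    (fun G _ _ h => (involTriple_of_isMinimalSimple h).hasCoprimeTriple) G, ?_⟩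
  rintro ⟨a, b, c, ha, -, -, h1, h2, h3, h⟩
  exact not_isSolvable_of_triple ha h1 h2 h3 h⟩
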