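import Cfsg.Agent.Gate.S0627
import Cfsg.Agent.Gate.S0625
import Cfsg.Agent.Trans.StableClosure
import Cfsg.Agent.Trans.ZJFactor

set_option autoImplicit false
open Cfsg Cfsg.Agent Cfsg.Lib.Solv Cfsg.Lib.Trans Cfsg.Lib.Trans.TJ Subgroup

/-- S0627, conditional on the listed gates (universe list must stay the statement's own). -/
theorem Cfsg.Agent.Cond.S0627.{u} [Gate.S0625.{u}] : Gate.S0627.{u} := ⟨by
  -- binders: G p hp hsep S (plus anonymous instances)
  intro G _ _ p _ hp hsep S
  have hN := coprime_card_pPrimeCore p G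
  have hs := hsep.quotient (pPrimeCore p G)
  have h1 := wOf_normal (Gate.S0625.out hp hs)
    (hs.centralizer_pCore_le (pPrimeCore_quotient_pPrimeCore p G))
    (S.mapSurjective (QuotientGroup.mk'_surjective (pPrimeCore p G)))
  rw [Sylow.coe_mapSurjective, ← map_wOf_of_injOn _ (inf_ker_eq_bot_of_coprime S.isPGroup'
    (by rwa [QuotientGroup.ker_mk']))] at h1
  rw [sup_comm]
  exact normalizer_sup_eq_top_of_sup_normal _ hN (S.isPGroup'.to_le (wOf_le _))
    (sup_normal_of_map_normal _ h1)⟩
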