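import Cfsg.Agent.Gate.S1132
import Cfsg.Agent.Suz.KCyclic

set_option autoImplicit false
open Cfsg Cfsg.Agent Cfsg.Lib.Suz Cfsg.Lib.Chev.RankOne

/-- S1132, conditional on the listed gates (universe list must stay the statement's own). -/
theorem Cfsg.Agent.Cond.S1132.{u, v} [Gate.S0205.{u}] : Gate.S1132.{u, v} := ⟨by
  intro G Ω _ _ _ _ a t Q hS h2 S
  obtain ⟨K, hH⟩ := exists_hyp hS h2
  refine or_iff_not_imp_left.2 fun hne => ⟨inferInstance, S.isPGroup', ?_, ?_, ?_⟩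
  · by_contra! h
    exact hne ⟨⟨h⟩⟩
  all_goals
    have hnil := hH.nil
    have hSn : (S : Subgroup Q).Normal := inferInstance
    have hmem : ∀ x : Q, x * x = 1 → x ∈ (S : Subgroup Q) := fun x hx => by
      have hy : IsPGroup 2 (Subgroup.zpowers x) := by
        rintro ⟨_, n, rfl⟩
        refine ⟨1, Subtype.ext ?_⟩
        change (x ^ n) ^ 2 ^ 1 = 1
        rw [pow_one, ← zpow_natCast, ← zpow_mul, mul_comm, zpow_mul, zpow_natCast, pow_two, hx,
          one_zpow]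
      obtain ⟨T, hT⟩ := hy.exists_le_sylow
      have := Sylow.unique_of_normal S hSn
      exact Subsingleton.elim T S ▸ hT (Subgroup.mem_zpowers x)
  · obtain ⟨s, hs, u, hu, hsu, -⟩ := exists_two_II hS h2
    exact ⟨⟨⟨s, II_Q hS hs⟩, hmem _ (Subtype.ext hs.2.2)⟩, ⟨⟨u, II_Q hS hu⟩, hmem _ (Subtype.ext hu.2.2)⟩,
      fun h => hsu (congrArg (fun x : S => ((x : Q) : G)) h),
      fun h => hs.2.1 (congrArg (fun x : S => ((x : Q) : G)) h), Subtype.ext (Subtype.ext hs.2.2),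
      fun h => hu.2.1 (congrArg (fun x : S => ((x : Q) : G)) h), Subtype.ext (Subtype.ext hu.2.2)⟩
  · have hSc := Sylow.characteristic_of_normal S hSn
    let φ : K →* MulAut (S : Subgroup Q) := ((MulAut.characteristic (S : Subgroup Q)).comp (conjQ hS)).comp
      (Subgroup.inclusion (hH.K_le.trans inf_le_left))
    have hφ : ∀ (k : K) (x : (S : Subgroup Q)), (((φ k x : (S : Subgroup Q)) : Q) : G) =
        k * (x : Q) * (k : G)⁻¹ := fun _ _ => rfl
    have := hH.cyc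
    refine ⟨φ.range, isCyclic_of_surjective _ φ.rangeRestrict_surjective, fun x y hx1 hx hy1 hy => ?_⟩
    have hI : ∀ x : (S : Subgroup Q), x ≠ 1 → x * x = 1 → ((x : Q) : G) ∈ II G a := fun x h1 h =>
      mem_II.2 ⟨Q_fix hS (x : Q).2, fun e => h1 (Subtype.ext (Subtype.ext e)),
        congrArg (fun x : S => ((x : Q) : G)) h⟩
    obtain ⟨k, hk, e⟩ := KK_trans hS (hI x hx1 hx) (hI y hy1 hy)
    have hk' := K.inv_mem ((hH.mem_K k).2 hk)
    refine ⟨⟨_, ⟨k⁻¹, hk'⟩, rfl⟩, Subtype.ext (Subtype.ext (by rw [← e]; exact (hφ _ _).trans (by simp))), ?_⟩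
    rintro ⟨_, l, rfl⟩ hl
    have h1 := hφ l x
    have h3 : φ l x = y := hl
    rw [h3] at h1
    have h4 := KK_inj hS (hI x hx1 hx) hk ((hH.mem_K _).1 (K.inv_mem l.2)) (by rw [e, h1, inv_inv])
    refine Subtype.ext (congrArg φ (Subtype.ext ?_))
    change (l : G) = k⁻¹
    rw [h4, inv_inv]⟩
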