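import Cfsg.Agent.Gate.S1133
import Cfsg.Agent.Suz.KCyclic

set_option autoImplicit false
open Cfsg Cfsg.Agent Cfsg.Lib.Suz Cfsg.Lib.Chev.RankOne

/-- S1133, conditional on the listed gates (universe list must stay the statement's own). -/
theorem Cfsg.Agent.Cond.S1133.{u, v} [Gate.S0205.{u}] : Gate.S1133.{u, v} := ⟨by
  intro G Ω _ _ _ _ a t Q hS h2
  obtain ⟨K, hH⟩ := exists_hyp hS h2
  obtain ⟨s, -, r, -, -, hs, F, _, _, _, ⟨f⟩⟩ := hH.exists_fld_struct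
  obtain ⟨α, -, hker⟩ := f.exists_autHom hs
  have hc : IsCyclic (RingAut F) := ⟨Cfsg.Lib.Chev.FieldAut.Fr F, fun σ => by
    obtain ⟨i, -, h⟩ := Cfsg.Lib.Chev.FieldAut.exists_aut_eq_pow σ
    exact ⟨i, by rw [h]; exact zpow_natCast _ _⟩⟩
  obtain ⟨⟨_, v, rfl⟩, hv⟩ := IsCyclic.exists_generator (α := α.range)
  refine ⟨v, v.2, le_antisymm (sup_le inf_le_left ((Subgroup.closure_le _).2 ?_)) fun x hx => ?_⟩
  · rintro _ rfl
    exact v.2
  · obtain ⟨n, hn⟩ := hv ⟨_, ⟨x, hx⟩, rfl⟩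
    have h1 : α v ^ n = α ⟨x, hx⟩ := congrArg Subtype.val hn
    have h3 := hH.mem_WW_iff.1 ((hker (⟨x, hx⟩ * (v ^ n)⁻¹)).1 (by
      rw [map_mul, map_inv, map_zpow, h1, mul_inv_cancel]))
    have h4 : x = x * ((v : G) ^ n)⁻¹ * (v : G) ^ n := by group
    have h5 : x * ((v : G) ^ n)⁻¹ ∈ VV a t ⊓ Subgroup.centralizer (KK a t) :=
      ⟨h3.1, fun k hk => h3.2 k ((hH.mem_K k).2 hk)⟩
    rw [h4]
    exact Subgroup.mul_mem_sup h5
      (Subgroup.zpow_mem _ (Subgroup.subset_closure (Set.mem_singleton (v : G))) n)⟩
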