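import Cfsg.Agent.Gate.S1222
import Cfsg.Agent.Bender.Main

set_option autoImplicit false
open Cfsg Cfsg.Agent Cfsg.Lib Cfsg.Lib.Local Cfsg.Lib.Bender Cfsg.Lib.Chev.RankOne

/-- S1222, conditional on the listed gates. -/
theorem Cfsg.Agent.Cond.S1222.{u} [Gate.S1136.{u, u}] : Gate.S1222.{u} := ⟨by
  intro G _ _ _ H hH Q hQH hQn htrans hreg
  have hH' := isStronglyEmbedded_iff_se.1 hH
  obtain ⟨t, htH, ht⟩ := hH'.exists_involution_not_mem
  haveI := faithful_quotient (normalCore_eq_bot_of_simple hH'.ne_top)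
  have hta : t • ((1 : G) : G ⧸ H) = (t : G ⧸ H) := by
    rw [smul_mk_eq_iff]; simp
  have htr : ∀ b c : G ⧸ H, b ≠ ((1 : G) : G ⧸ H) → c ≠ ((1 : G) : G ⧸ H) → ∃ x ∈ Q, x • b = c := by
    intro b c hb hc
    obtain ⟨g₁, rfl⟩ := QuotientGroup.mk_surjective b
    obtain ⟨g₂, rfl⟩ := QuotientGroup.mk_surjective c
    obtain ⟨x, hx, e⟩ := htrans g₁ g₂ (mk_ne_one_iff.1 hb) (mk_ne_one_iff.1 hc)
    exact ⟨x, hx, smul_mk_eq_iff.2 e⟩
  have hQfix : ∀ x ∈ Q, x • ((1 : G) : G ⧸ H) = ((1 : G) : G ⧸ H) := fun x hx => by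
    rw [smul_mk_eq_iff]; simpa using hQH hx
  have hS : IsRankOneSetup G (G ⧸ H) ((1 : G) : G ⧸ H) t Q := by
    refine setup_of_regular (SE.mul_self_of_orderOf_two ht) (hta ▸ mk_ne_one_iff.2 htH) hQfix ?_ htr
      ?_ ?_ ?_
    · rw [MulAction.stabilizer_quotient]
      intro h hh x hx
      exact Subgroup.mem_subgroupOf.1 (hQn.conj_mem ⟨x, hQH hx⟩ hx ⟨h, hh⟩)
    · intro x hx e
      rw [hta, smul_mk_eq_iff] at e
      exact hreg t htH x hx e
    · have e : Q ≃ {c : G ⧸ H // c ≠ ((1 : G) : G ⧸ H)} := Equiv.ofBijective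
        (fun x => ⟨(x : G) • (t : G ⧸ H), smul_ne_of_fix (hQfix x x.2) (mk_ne_one_iff.2 htH)⟩) ⟨?_, ?_⟩
      · have h1 : Nat.card {c : G ⧸ H // c ≠ ((1 : G) : G ⧸ H)} = H.index - 1 := by
          have h3 : ({c | c ≠ ((1 : G) : G ⧸ H)} : Set (G ⧸ H)) = {((1 : G) : G ⧸ H)}ᶜ := by
            ext c; simp
          change Nat.card ({c | c ≠ ((1 : G) : G ⧸ H)} : Set (G ⧸ H)) = _
          rw [Nat.card_coe_set_eq, h3, Set.ncard_compl, Set.ncard_singleton]
          rfl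
        rw [Nat.card_congr e, h1]
        exact Nat.Odd.sub_odd (Nat.odd_iff.2 (Nat.two_dvd_ne_zero.1 hH'.not_dvd_index)) odd_one
      · intro x y hxy
        have h1 : (x : G) • (t : G ⧸ H) = (y : G) • (t : G ⧸ H) := congrArg Subtype.val hxy
        have h2 : ((y : G)⁻¹ * x) • (t : G ⧸ H) = t := by rw [mul_smul, h1, inv_smul_smul]
        have h3 := hreg t htH _ (mul_mem (inv_mem y.2) x.2) (smul_mk_eq_iff.1 h2)
        exact Subtype.ext (inv_mul_eq_one.1 h3).symm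
      · rintro ⟨c, hc⟩
        obtain ⟨x, hx, e⟩ := htr t c (mk_ne_one_iff.2 htH) hc
        exact ⟨⟨x, hx⟩, Subtype.ext e⟩
    · rw [odd_card_iff_forall_not_involution]
      intro x hx hx2
      obtain ⟨h1, h3⟩ := Subgroup.mem_inf.1 hx
      rw [MulAction.stabilizer_quotient] at h1
      rw [MulAction.mem_stabilizer_iff, hta, smul_mk_eq_iff] at h3
      exact htH (hH'.mem_of_conj' h1 hx2 (by simpa [mul_assoc] using h3))
  exact (isBender_of_simple_setup hS (twoRank_of_simple hH')).weak⟩
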