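import Cfsg.Agent.Gate.S1223
import Cfsg.Agent.Bender.Main

set_option autoImplicit false
open Cfsg Cfsg.Agent Cfsg.Lib Cfsg.Lib.Local Cfsg.Lib.Bender Cfsg.Lib.Chev.RankOne

/-- S1223, conditional on the listed gates. -/
theorem Cfsg.Agent.Cond.S1223.{u} [Gate.BenderCore.{u}] : Gate.S1223.{u} := ⟨by
  intro G _ _ H hH hc w hw hwH j hj hj1 hinv
  have hH' := isStronglyEmbedded_iff_se.1 hH
  have hww := SE.mul_self_of_orderOf_two hw
  obtain ⟨hj2, hj3⟩ := Subgroup.mem_inf.1 hj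
  rw [mem_map_conj] at hj3
  by_cases h2 : TwoRank G
  · obtain ⟨t, Q, hS⟩ := core_of_gate G H hH' hc h2
    have hwa : w • ((1 : G) : G ⧸ H) = (w : G ⧸ H) := by
      rw [smul_mk_eq_iff]; simp
    have hS' := setup_of_invol hS hww (hwa ▸ mk_ne_one_iff.2 hwH)
    refine odd_card_centralizer_KK hS' ⟨mem_DD.2 ⟨?_, ?_⟩, hinv⟩ hj1
    · rw [smul_mk_eq_iff]; simpa using hj2
    · rw [hwa, smul_mk_eq_iff]; simpa [mul_assoc] using hj3
  · rw [← Nat.not_even_iff_odd]
    intro he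
    obtain ⟨x, hx, hx1, hx2, hxw⟩ := exists_invol_comm he hww (fun y hy => by
      rw [Subgroup.mem_centralizer_singleton_iff] at hy ⊢
      have h1 : j = w * j⁻¹ * w⁻¹ := by
        calc j = (w * j * w⁻¹)⁻¹ := by rw [hinv, inv_inv]
          _ = _ := by group
      have h3 : y * j⁻¹ = j⁻¹ * y := ((show Commute y j from hy).inv_right).eq
      calc w * y * w⁻¹ * j = w * y * w⁻¹ * (w * j⁻¹ * w⁻¹) := by rw [← h1]
        _ = w * (y * j⁻¹) * w⁻¹ := by group
        _ = (w * j⁻¹ * w⁻¹) * (w * y * w⁻¹) := by rw [h3]; group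
        _ = _ := by rw [← h1])
    have e := eq_of_not_twoRank h2 (orderOf_eq_two hx1 hx2) hw hxw
    rw [e, Subgroup.mem_centralizer_singleton_iff] at hx
    have hodd : Odd (orderOf j) :=
      hH'.odd_orderOf_of_conj_mem (g := w⁻¹) (by rwa [inv_mem_iff]) hj2 (by simpa using hj3)
    apply hj1
    refine eq_one_of_sq_of_odd hodd ?_
    have : j = j⁻¹ := by rw [← hinv, hx]; group
    exact mul_eq_one_iff_eq_inv.2 this⟩
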