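import Cfsg.Agent.Gate.S1646
import Cfsg.Agent.Gate.S1703
import Cfsg.Agent.SporChar.J4PMain

set_option autoImplicit false
open Cfsg Cfsg.Agent Cfsg.Lib.SporChar

/-- S1646, conditional on the listed gates (universe list must stay the statement's own). -/
theorem Cfsg.Agent.Cond.S1646.{u} [Gate.S1703] [Gate.S5563.{u}] [Gate.S5564.{u}] :
    Gate.S1646.{u} := ⟨by
  intro G _ _ hG t ht Q N M _ _ _ hQN hNM hM hQ hcard _ hN hcent hperf h2c hout hM22
  have := Gate.S1703.out.1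
  obtain ⟨P, h⟩ := J4.jankoFour_of_centralizer ht hQN hNM hM hQ hcard hN hcent hperf h2c hout hM22
  obtain ⟨e⟩ := J4P.iso h
  obtain ⟨x, p, v, ρ, κ, -, h⟩ := J4B.exists_out h
  have h3 := Finset.card_pair (Option.some_ne_none (0 : ZMod 23)).symm
  obtain ⟨-, k2, k3⟩ := h.toSp.t_spec (Option.some_ne_none (0 : ZMod 23)).symm
  exact ⟨⟨hG, (Nat.card_congr e.toEquiv).trans Gate.S1703.out.2⟩, t, _, ht,
    Cfsg.Lib.Local.invol_of_mul_self (h.toFr.coc.v_sq _) k2, k3,
    fun g hg => (h.two_classes g hg _ h3).imp IsConj.symm IsConj.symm⟩⟩
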