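import Cfsg.Agent.Gate.S1725
import Cfsg.Agent.Gate.S1719
import Cfsg.Agent.Spor.SzThree

set_option autoImplicit false
open Cfsg Cfsg.Agent Cfsg.Lib.Spor.SuzL Subgroup

/-- S1725, conditional on the listed gates (universe list must stay the statement's own). -/
theorem Cfsg.Agent.Cond.S1725.{u} [Gate.S1719.{u}] : Gate.S1725.{u} := ⟨by
  intro G _ _ z hz Q _ hF hQ hcard e hnwc Y hY hQY _
  obtain ⟨f, h, a⟩ := exists_md_y (Gate.S1719.out z hz Q hF hQ hcard e hnwc) hz hF hQ hcard hY hQY
  rw [a]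
  intro P
  refine ⟨fun h1 => ?_, ?_⟩
  · have h2 := (P.toSubgroup.map (Subgroup.subtype _)).card_mul_index
    rw [card_map_of_injective (subtype_injective _), h.card,
      Lib.Known.SC.sylow_card_eq_pow P h.card_norm_y (by norm_num)] at h2
    omega
  · obtain ⟨c, -, h1⟩ := Lib.Local.exists_conj_le_sylow' P ((h.A_le.trans (centralizer_le
      (zpowers_le.2 (Lib.Spor.Bulk.mem_gL (by decide))))).trans (centralizer_le_normalizer _))
      (IsPGroup.of_card h.three.2.1)
    refine ⟨_, ?_, (h.conj c).three⟩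
    rw [Lib.Spor.SzK.gL_conj]
    rintro _ ⟨x, hx, rfl⟩
    exact h1 x hx⟩
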