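import Cfsg.Agent.Gate.S1820
import Cfsg.Agent.Gate.QTCyc
import Cfsg.Agent.QT.Struct

set_option autoImplicit false
open Cfsg Cfsg.Agent Cfsg.Lib Cfsg.Lib.QT Cfsg.Lib.Solv Subgroup

/-- S1820, conditional on the listed gates (universe list must stay the statement's own). -/
theorem Cfsg.Agent.Cond.S1820.{u} [Gate.QTOutR.{u}] [Gate.QTCyc.{u}] : Gate.S1820.{u} := ⟨by
  intro G _ _ _ hG hQ H hH
  have hX := sqt_of_mem_calH hQ.1 hH
  have hK := isKGroup_of_mem_calH hG hQ.2.1 hH
  refine ⟨sSup_calC_eq hX hK, fun L hL K hK' hne => ?_, fun L hL => ?_⟩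
  · rw [map_pCore_eq_inf_of_isSubnormal (CC.sub hL), map_pCore_eq_inf_of_isSubnormal (CC.sub hK')]
    have h1 := CC.commutator_le_pCore hX hL hK' hne
    exact ⟨le_inf (le_inf h1 (commutator_le_left_of_le_normalizer (CC.le_normalizer hL hK')))
      (le_inf h1 (commutator_le_right_of_le_normalizer (CC.le_normalizer hK' hL))),
      inf_le_left.trans inf_le_left⟩
  · refine (CC.normal_or_index hX hL).imp_right fun ⟨h1, h2, h3⟩ => ⟨h1, ?_⟩
    obtain ⟨e⟩ := nonempty_quot_equiv_map (CC.sub hL)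
    have h4 : IsSimpleGroup (L ⧸ pCore 2 L) := e.isSimpleGroup
    have h5 : ¬ IsMulCommutative (L ⧸ pCore 2 L) := fun h =>
      CC.not_solv (CC.map hL q2_surj solv_ker_q2) (Group.isSolvable_of_comm fun a b =>
        e.symm.injective (by rw [map_mul, map_mul, h.is_comm.comm]))
    exact Gate.QTCyc.out h5 (hK L _ h4 h5) fun p hp hp2 =>
      FT.BG4.pRankLE_of_injective (h3 p hp hp2) e.toMonoidHom e.injective⟩
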