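import Cfsg.Agent.Gate.S1821
import Cfsg.Agent.QT.Uniq

set_option autoImplicit false
open Cfsg Cfsg.Agent Cfsg.Lib Cfsg.Lib.QT Cfsg.Lib.Solv Cfsg.Lib.Local.MSS Subgroup

/-- S1821, conditional on the listed gates (universe list must stay the statement's own). -/
theorem Cfsg.Agent.Cond.S1821.{u} [Gate.QTOutR.{u}] : Gate.S1821.{u} := ⟨by
  intro G _ _ _ hG hQ T L hL
  have h1 : ∀ H ∈ calHOver (L ⊔ (T : Subgroup G)), L.subgroupOf H ∈ calC H := by
    intro H ⟨hH, hle⟩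
    have hT : (T : Subgroup G) ≤ H := le_sup_right.trans hle
    obtain ⟨K, hK, h⟩ := exists_calC_ge (sSup_calC_eq (sqt_of_mem_calH hQ.1 hH)
      (isKGroup_of_mem_calH hG hQ.2.1 hH)).ge (T.subtype hT) (inclusion hle)
      (inclusion_injective hle) (fun x hx => ⟨⟨x, mem_sup_right hx⟩, rfl⟩) hL.1.1
    have h2 := hL.2 _ (mem_calL_of_calC T hH hT hK) fun x hx =>
      ⟨_, h ⟨⟨x, mem_sup_left hx⟩, hx, rfl⟩, rfl⟩
    rwa [← h2, subgroupOf, comap_map_eq_self_of_injective H.subtype_injective]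
  have h2 : Local.CharP 2 L := (S1851.charP_over hQ.2.2 T le_sup_right hL.1.2.2).of_subnormalIn
    ⟨le_sup_left, CC.sub hL.1.1⟩
  have h3 : pCoreOf 2 L ≠ ⊥ := fun h => hL.1.1.1 (by
    rw [eq_bot_iff.2 ((charP_le h2 le_rfl (le_centralizer_iff.1 (h.le.trans bot_le))).trans h.le),
      bot_subgroupOf])
  have h4 : ∀ H ∈ calHOver (L ⊔ (T : Subgroup G)), H ≤ normalizer (conjClosure L T : Set G) :=
    fun H hH => le_normalizer_conjClosure T (le_sup_right.trans hH.2) (le_sup_left.trans hH.2)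
      ((CC.normal_or_index (sqt_of_mem_calH hQ.1 hH.1) (h1 H hH)).imp_right And.left)
  refine ⟨h1, Local.charP_iff_genFitting.1 h2, maxTwoLocalsContaining_eq hL.1.2.2 (fun h => h3 ?_)
    fun M hM => h4 M ⟨mem_calH_of_isTwoLocal hM.1.1, hM.2⟩⟩
  have h5 : L ≤ conjClosure L T := le_trans (by rw [map_conj_eq_smul]; exact (conj_one_smul L).ge)
    (le_iSup (fun t : (T : Subgroup G) => L.map (MulAut.conj (t : G)).toMonoidHom) 1)
  have h6 : conjClosure L T ≤ L ⊔ T := iSup_le fun t => by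
    rw [map_conj_eq_smul, conj_smul_le_iff]
    exact fun x hx => mul_mem (mul_mem (mem_sup_right t.2) (mem_sup_left hx))
      (inv_mem (mem_sup_right t.2))
  refine eq_bot_iff.2 ((le_inf (pCoreOf_le_of_subnormalIn ⟨le_sup_left, CC.sub hL.1.1⟩)
    ((pCoreOf_le L).trans h5)).trans ((pCoreOf_inf_le h6).trans (pCoreOf_eq_bot_iff.2 h).le))⟩
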