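import Cfsg.Agent.Gate.S1822
import Cfsg.Agent.QT.XiMain

set_option autoImplicit false
open Cfsg Cfsg.Agent Cfsg.Lib.QT

/-- S1822, conditional on the listed gates (universe list must stay the statement's own). -/
theorem Cfsg.Agent.Cond.S1822.{u} [Gate.QTOutR.{u}] : Gate.S1822.{u} := ⟨by
  intro G _ _ _ hG hQ T X hX
  exact maxTwoLocalsContaining_eq hX.1.2.2.1 (mem_calH_of_Xi hQ.2.2 T hX.1) fun M hM =>
    le_normalizer_of_XiStar hG hQ T hX (mem_calH_of_isTwoLocal hM.1.1) hM.2⟩
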