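import Cfsg.Agent.Gate.S1847
import Cfsg.Agent.Gate.S1169
import Cfsg.Agent.Bender.Main
import Cfsg.Agent.Local.Tight
import Cfsg.Agent.Trans.Centric

set_option autoImplicit false
open Cfsg Cfsg.Agent Cfsg.Lib Cfsg.Lib.Local Cfsg.Lib.Bender Cfsg.Lib.Trans

/-- S1847, conditional on the listed gates (universe list must stay the statement's own). -/
theorem Cfsg.Agent.Cond.S1847.{u} [Gate.S1169.{u}] [Gate.BenderCore.{u}] [Gate.S1136.{u, u}] :
    Gate.S1847.{u} := ⟨by
  intro G _ _ _ hG _ T M hM h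
  have hMm : M ∈ maxTwoLocalsContaining (T : Subgroup G) := by rw [hM]; rfl
  obtain ⟨hmax, hTM⟩ := hMm
  have huniq : ∀ X : Subgroup G, IsPGroup 2 X → X ≠ ⊥ →
      (T : Subgroup G) ≤ Subgroup.normalizer (X : Set G) → Subgroup.normalizer (X : Set G) ≤ M := by
    intro X hX hX1 hTX
    obtain ⟨M', hM', hle⟩ := exists_maximalTwoLocal (N := Subgroup.normalizer (X : Set G))
      ⟨X, hX, hX1, rfl⟩
    have : M' ∈ maxTwoLocalsContaining (T : Subgroup G) := ⟨hM', hTX.trans hle⟩
    rw [hM] at this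
    exact (Set.mem_singleton_iff.1 this) ▸ hle
  have hsc : ∀ U : Subgroup G, U ≤ M → M ≤ Subgroup.normalizer (U : Set G) → IsPGroup 2 ↥U →
      IsStronglyClosed U (T : Subgroup G) := by
    intro U hUM hMU hU
    refine ⟨(isSylowIn_of_le T hTM).le_of_normal hU hUM hMU, fun x hx g hg => ?_⟩
    have hxT : x ∈ (T : Subgroup G) := (isSylowIn_of_le T hTM).le_of_normal hU hUM hMU hx
    have key := alperin_goldschmidt (isSylowIn_top T)
      (fun A g => ∀ a ∈ A, a ∈ U → g * a * g⁻¹ ∈ U)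
      (fun A B g hAB hB a ha => hB a (hAB ha))
      (fun A g k h1 h2 a ha haU => by
        have := h2 _ (conj_mem_cj.2 ha) (h1 a ha haU)
        simpa [mul_assoc] using this)
      (fun A c hc a ha haU => by rwa [conj_eq_of_mem_centralizer hc ha])
      (fun D hD _ n hn a ha haU => by
        by_cases hD1 : D = ⊥
        · rw [hD1, Subgroup.mem_bot] at ha
          subst ha
          simp
        · have hi := hD.isInternalDirectProduct T.isPGroup'
          have hn' := h D ⟨hD1, hD.1, ⟨(fullyNorm_top_iff'.1 hD.2.1).toSylow, rfl⟩,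
            hD.centralizer_le T.isPGroup', by
              rw [Subgroup.commutator_eq_bot_iff_le_centralizer]
              exact fun a ha b hb => (hi.2.2.1 a ha b hb).symm, hi.2.2.2.2⟩ hn
          exact mem_normalizer_conj (hMU hn') haU)
      (Subgroup.zpowers x) (Subgroup.zpowers_le.2 hxT) g (by
        rw [cj_zpowers]; exact Subgroup.zpowers_le.2 hg)
    exact key x (Subgroup.mem_zpowers x) hx
  refine ⟨hsc, ?_⟩
  obtain ⟨X, hX, hX1, hMX⟩ := hmax.1
  have hMtop : M ≠ ⊤ := fun e => by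
    have hN : X.Normal := Subgroup.normalizer_eq_top_iff.1 (hMX ▸ e)
    rcases hN.eq_bot_or_eq_top with h1 | h1
    · exact hX1 h1
    · have hG2 : IsPGroup 2 G := (h1 ▸ hX).of_equiv Subgroup.topEquiv
      have := hG2.center_nontrivial
      rcases (inferInstance : (Subgroup.center G).Normal).eq_bot_or_eq_top with h2 | h2
      · exact absurd h2 ((Subgroup.nontrivial_iff_ne_bot _).1 this)
      · exact hG ⟨⟨fun a b => Subgroup.mem_center_iff.1 (h2 ▸ Subgroup.mem_top b) a⟩⟩
  set U := X ⊓ Subgroup.centralizer (X : Set G) with hU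
  have hU1 : U ≠ ⊥ := fun e => by
    have : Nontrivial X := (Subgroup.nontrivial_iff_ne_bot _).2 hX1
    have := hX.center_nontrivial
    obtain ⟨z, hz⟩ := exists_ne (1 : Subgroup.center X)
    have hzU : ((z : X) : G) ∈ U := ⟨(z : X).2, fun y hy =>
      congrArg Subtype.val (Subgroup.mem_center_iff.1 z.2 ⟨y, hy⟩)⟩
    rw [e, Subgroup.mem_bot] at hzU
    exact hz (Subtype.ext (Subtype.ext hzU))
  have hUc : IsMulCommutative U := ⟨⟨fun a b => Subtype.ext (b.2.2 _ a.2.1)⟩⟩
  have hMU : M ≤ Subgroup.normalizer (U : Set G) := fun m hm => by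
    rw [hMX] at hm
    rw [← cj_eq_self_iff, hU, cj_inf, cj_centralizer, cj_eq_of_mem_normalizer hm]
  have hUM : U ≤ M := inf_le_left.trans (hMX ▸ Subgroup.le_normalizer)
  have hSE : ∃ H : Subgroup G, SE 2 H := by
    rcases Gate.S1169.out T U hU1 hUc (hsc U hUM hMU (hX.to_inf_left)) with hT | ⟨H, hH⟩
    · have hT1 : (T : Subgroup G) ≠ ⊥ := fun e =>
        hU1 (le_bot_iff.1 (e ▸ (hsc U hUM hMU (hX.to_inf_left)).1))
      refine ⟨M, SE.of_centralizer_normalizer hMtop T
        (huniq _ T.isPGroup' hT1 Subgroup.le_normalizer) fun x hx hx2 => ?_⟩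
      have hc : Subgroup.centralizer ({x} : Set G) ≤
          Subgroup.normalizer (Subgroup.zpowers x : Set G) := fun c hc => by
        rw [← cj_eq_self_iff, cj_zpowers, conj_eq_of_mem_centralizer hc rfl]
      refine hc.trans (huniq _ (isPGroup_zpowers_of_orderOf_eq hx2)
        (by simpa using SE.ne_one_of_orderOf_two hx2) (le_trans (fun t ht => ?_) hc))
      exact Subgroup.mem_centralizer_singleton_iff.2
        (congrArg Subtype.val (hT.is_comm.comm ⟨t, ht⟩ ⟨x, hx⟩))
    · exact ⟨H, isStronglyEmbedded_iff_se.1 hH⟩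
  obtain ⟨H, hH⟩ := hSE
  rcases ((core_of_gate G).simple hH).1.flat with ⟨F, i1, i2, n, hn, hF, e⟩ | hs | hu
  · refine Or.inl ⟨F, i1, i2, Bender.charP_two_of_card (by omega) hF, ?_, e⟩
    rw [hF]
    exact (Nat.pow_le_pow_right (by norm_num) hn : 2 ^ 2 ≤ 2 ^ n)
  · exact Or.inr (Or.inr hs)
  · exact Or.inr (Or.inl hu)⟩
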