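import Cfsg.Agent.Gate.S2059
import Cfsg.Agent.Gate.YBij
import Cfsg.Agent.Mon.YWr
import Cfsg.Agent.Mon.YTop
import Cfsg.Agent.Mon.YSplit
import Cfsg.Agent.Known.MultBasic

set_option autoImplicit false
open Cfsg Cfsg.Agent

theorem Cfsg.Agent.Cond.S2059 [Gate.YBij] : Gate.S2059 := ⟨by
  obtain ⟨M, _, A, g, u, -, -, hY⟩ := Gate.YBij.out
  obtain ⟨π, hπ⟩ := hY.exists_iso hY.inj
  obtain ⟨e, -⟩ := hY.exists_equiv (hπ .a)
  exact Cfsg.Lib.Known.hasSchurMultiplier_congr e hY.multiplier⟩
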