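import Cfsg.Agent.Gate.S3121
import Cfsg.Agent.Local.Tight
import Cfsg.Agent.Block.ZStar
import Cfsg.Agent.Trans.GenFitting

set_option autoImplicit false
open Cfsg Cfsg.Agent Cfsg.Lib Cfsg.Lib.Local

/-- S3121, conditional on the listed gates (universe list must stay the statement's own). -/
theorem Cfsg.Agent.Cond.S3121.{u} [Gate.S0205.{u}] [Gate.S1175.{u}] : Gate.S3121.{u} := ⟨by
  intro G _ _ hF hF' H hH hodd
  set L := generalizedFittingSubgroup G with hL
  have hLn : L.Normal := inferInstance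
  set N := Subgroup.normalizer (H : Set G) with hN
  have hU : Uniq H N := uniq_of_odd hodd
  have hn : ∀ g ∈ N, ∀ a ∈ H, g * a * g⁻¹ ∈ H := fun g hg a ha =>
    (Subgroup.mem_normalizer_iff.1 hg a).1 ha
  have hLe := even_of_simple hF'
  by_cases he : Even (Nat.card (H.subgroupOf L))
  · by_cases hM : N.subgroupOf L = ⊤
    · left
      have h1 : (H.subgroupOf L).Normal :=
        ⟨fun a ha g => hn g (Subgroup.subgroupOf_eq_top.1 hM g.2) a ha⟩
      obtain ⟨x, hx, hx2⟩ := (even_card_iff_exists_involution _).1 he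
      rw [← Subgroup.normalizer_eq_top_iff, eq_top_iff]
      exact fun g _ => hU x hx (by rw [Subgroup.orderOf_coe, hx2]) g
        (Subgroup.subgroupOf_eq_top.1 hM (hLn.conj_mem _ x.2 g))
    · exact Or.inr (Uniq.exists_se (Q := H.subgroupOf L)
        (fun x hx hx2 g hg => hU x hx (by rw [Subgroup.orderOf_coe, hx2]) g hg) hM
        (fun x hx => Subgroup.le_normalizer hx) (fun g hg a ha => hn g hg a ha) he)
  · exfalso
    have hodd' := (odd_card_iff_forall_not_involution _).1 (Nat.not_even_iff_odd.1 he)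
    obtain ⟨z, hzH, hz⟩ := (even_card_iff_exists_involution _).1 hH.1
    have hzz := SE.mul_self_of_orderOf_two hz
    set X := L ⊔ Subgroup.zpowers z with hX
    have hzX : z ∈ X := Subgroup.mem_sup_right (Subgroup.mem_zpowers z)
    have hcomm : ∀ g ∈ X, z * (g * z * g⁻¹) ∈ L := fun g hg => by
      obtain ⟨l, hl, y, hy, rfl⟩ := Subgroup.mem_sup_of_normal_left.1 hg
      obtain ⟨k, rfl⟩ := Subgroup.mem_zpowers_iff.1 hy
      have : z * (l * z ^ k * z * (l * z ^ k)⁻¹) = z * l * z⁻¹ * (z * z) * l⁻¹ := by group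
      rw [this, hzz, mul_one]
      exact mul_mem (hLn.conj_mem l hl z) (inv_mem hl)
    have hiso : IsIsolatedInvolution (⟨z, hzX⟩ : X) := by
      refine ⟨by rw [← Subgroup.orderOf_coe]; exact hz, fun g hg => Subtype.ext ?_⟩
      have hg' : z * ((g : G) * z * (g : G)⁻¹) = (g : G) * z * (g : G)⁻¹ * z :=
        congrArg Subtype.val hg.eq
      by_contra hne
      have hgN : (g : G) ∈ N := hU z hzH hz g (hU z hzH hz _ (by
        rw [← hg', mul_inv_cancel_right]; exact Subgroup.le_normalizer hzH))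
      exact hodd' ⟨_, hcomm g g.2⟩ (mul_mem hzH (hn g hgN z hzH)) (by
        rw [← Subgroup.orderOf_coe]
        exact orderOf_mul_eq_two hz (by rw [orderOf_conj, hz]) hg' hne)
    have hO : ((oddCore X).map X.subtype).subgroupOf L = ⊥ := by
      have h1 : (((oddCore X).map X.subtype).subgroupOf L).Normal := ⟨fun a ha g => by
        obtain ⟨b, hb, e⟩ := ha
        exact ⟨⟨g, Subgroup.mem_sup_left g.2⟩ * b * ⟨g, Subgroup.mem_sup_left g.2⟩⁻¹,
          (inferInstance : (oddCore X).Normal).conj_mem b hb _, by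
            change (g : G) * b * (g : G)⁻¹ = g * a * (g : G)⁻¹
            rw [show (b : G) = a from e]⟩⟩
      refine h1.eq_bot_or_eq_top.resolve_right fun e => ?_
      obtain ⟨x, -, hx⟩ := (even_card_iff_exists_involution (⊤ : Subgroup L)).1
        (by rwa [Subgroup.card_top])
      obtain ⟨b, hb, e'⟩ : x ∈ ((oddCore X).map X.subtype).subgroupOf L := e ▸ Subgroup.mem_top x
      refine (odd_card_iff_forall_not_involution _).1
        (Nat.coprime_two_right.1 (Solv.coprime_card_pPrimeCore 2 X)) b hb ?_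
      rw [← Subgroup.orderOf_coe, show (b : G) = x from e', Subgroup.orderOf_coe, hx]
    have hzL : z ∈ L := Trans.centralizer_genFitting_le G (Subgroup.mem_centralizer_iff.2
      fun l hl => by
        have h1 := Block.Princ.zstar hiso ⟨l, Subgroup.mem_sup_left hl⟩
        have h2 : z * l * z⁻¹ * l⁻¹ ∈ L := mul_mem (hLn.conj_mem l hl z) (inv_mem hl)
        have h3 : (⟨_, h2⟩ : L) ∈ ((oddCore X).map X.subtype).subgroupOf L := ⟨_, h1, rfl⟩
        rw [hO, Subgroup.mem_bot] at h3
        have h4 : z * l * z⁻¹ * l⁻¹ = 1 := congrArg Subtype.val h3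
        rw [mul_inv_eq_one, mul_inv_eq_iff_eq_mul] at h4
        exact h4.symm)
    exact hodd' ⟨z, hzL⟩ hzH (by rw [← Subgroup.orderOf_coe]; exact hz)⟩
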