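import Cfsg.Agent.Gate.S3705
import Cfsg.Agent.Gate.ONanAb
import Cfsg.Agent.Perm.ItoMain

set_option autoImplicit false
open Cfsg Cfsg.Agent Cfsg.Lib.Perm

/-- S3705, conditional on the listed gates (universe list must stay the statement's own). -/
theorem Cfsg.Agent.Cond.S3705.{u, v} [Gate.ONanAb.{u}] : Gate.S3705.{u, v} := ⟨by
  intro G Ω _ _ _ _ _ h2 H hidx hnt hfix N hN hN1 hsol hNfix
  exact Ito.concl_of_pslConcl H hidx
    (Ito.ito_solv h2 H (Gate.ONanAb.out G _) hidx hnt hfix N hN hN1 hsol hNfix)⟩
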