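import Cfsg.Agent.Gate.S3757
import Cfsg.Agent.Gate.S0515

set_option autoImplicit false
open Cfsg Cfsg.Agent

/-- S3757, conditional on S0515 (same theorem). -/
theorem Cfsg.Agent.Cond.S3757.{u} [Gate.S0515.{u}] : Gate.S3757.{u} := ⟨by
  intro X _ _ p _ A G hA hrank hAG hG hsol
  exact Gate.S0515.out p A G hA.1 hA.2 hrank hG hAG hsol⟩
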