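import Cfsg.Agent.Gate.S4310
import Cfsg.Agent.Gate.S0205
import Cfsg.Agent.Solv.HallSeparable
import Cfsg.Agent.FT.Pi

set_option autoImplicit false
open Pointwise Cfsg Cfsg.Agent Cfsg.Lib.Solv Cfsg.Lib.FT

namespace Cfsg.Agent.Cond.S4310h

universe u

variable {G : Type u} [Group G] [Finite G] {π : Set ℕ} {A K X : Subgroup G}

theorem hallD [Gate.S0205.{u}] [A.Normal] (hX : IsPiHallOf π X A)
    (hK : IsPiNum π (A.relIndex K)) : HallD π ↥(K ⊓ 𝐍 X) := by
  refine hallD_of_hasPiSeries_of_odd_solvable (fun A _ _ hA => Gate.S0205.out hA) _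
    (hasPiSeries_of_chain (n := 3)
      ![⊥, X.subgroupOf (K ⊓ 𝐍 X), A.subgroupOf (K ⊓ 𝐍 X), ⊤] rfl rfl ?_ ?_)
  · intro i
    fin_cases i
    · exact Subgroup.normal_bot
    · exact normal_subgroupOf inf_le_right
    · exact Subgroup.normal_subgroupOf
    · exact Subgroup.normal_top
  · intro i
    fin_cases i
    · refine ⟨π, Or.inl rfl, ?_⟩
      change IsPiNum π ((⊥ : Subgroup _).relIndex (X.subgroupOf (K ⊓ 𝐍 X)))
      rw [Subgroup.relIndex_bot_left, card_subgroupOf]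
      exact pgroupS inf_le_left (pHall_pgroup hX)
    · refine ⟨πᶜ, Or.inr rfl, ?_⟩
      change IsPiNum πᶜ ((X.subgroupOf (K ⊓ 𝐍 X)).relIndex (A.subgroupOf (K ⊓ 𝐍 X)))
      have h1 : IsPiHallOf π (X ⊓ (A ⊓ (K ⊓ 𝐍 X))) (A ⊓ (K ⊓ 𝐍 X)) := by
        have h2 : IsPiHallOf π X (A ⊓ 𝐍 X) :=
          pHall_subl (le_inf (pHall_sub hX) (normG X)) inf_le_left hX
        exact Hall_setI_normal h2 inf_le_right (inf_le_inf_left _ inf_le_right)
      have h3 := pHall_index h1
      rw [Subgroup.inf_relIndex_right] at h3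
      rwa [← Subgroup.inf_subgroupOf_right A, Subgroup.relIndex_subgroupOf inf_le_right]
    · refine ⟨π, Or.inl rfl, ?_⟩
      change IsPiNum π ((A.subgroupOf (K ⊓ 𝐍 X)).relIndex ⊤)
      rw [Subgroup.relIndex_top_right]
      refine hK.of_dvd ?_
      change A.relIndex (K ⊓ 𝐍 X) ∣ _
      rw [← card_map_mk', ← card_map_mk']
      exact cardSg (Subgroup.map_mono inf_le_left)

omit [Finite G] in
theorem conjA (hA : IsCPiGroup π A) {Y : Subgroup G} (hX : IsPiHallOf π X A)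
    (hY : IsPiHallOf π Y A) : ∃ a ∈ A, a •ᶜ X = Y := by
  obtain ⟨a, ha⟩ := hA.2 _ _ (pHall_subgroupOf.1 hX).2 (pHall_subgroupOf.1 hY).2
  refine ⟨a, a.2, ?_⟩
  have := congrArg (Subgroup.map A.subtype) ha
  rw [map_conj_eq_smul, map_subtype_conj_smul, Subgroup.map_subgroupOf_eq_of_le (pHall_sub hX),
    Subgroup.map_subgroupOf_eq_of_le (pHall_sub hY)] at this
  exact this.symm

theorem relIndex_sup_eq (h : K ≤ 𝐍 A) : K.relIndex (A ⊔ K) = K.relIndex A := by
  have h1 := card_sup_mul_card_inf_of_le_normalizer h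
  rw [← card_mul_relIndex_of_le (le_sup_right : K ≤ A ⊔ K), ← card_inf_mul_relIndex K A,
    inf_comm A K] at h1
  refine Nat.eq_of_mul_eq_mul_left (Nat.mul_pos (cardG_gt0 K) (cardG_gt0 (K ⊓ A))) ?_
  linear_combination h1

end Cfsg.Agent.Cond.S4310h

open Cfsg.Agent.Cond.S4310h in
/-- S4310, conditional on the odd order theorem. -/
theorem Cfsg.Agent.Cond.S4310.{u} [Gate.S0205.{u}] : Gate.S4310.{u} := ⟨by
  intro G _ _ π A hn hA hQ
  have nA : ∀ g : G, g ∈ 𝐍 A := fun g => by rw [Subgroup.normalizer_eq_top]; trivial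
  constructor
  · obtain ⟨X₀, hX₀⟩ := hA.1
    obtain ⟨K₀, hK₀⟩ := hQ.1
    have hX := pHall_map_subtype.2 hX₀
    set X := X₀.map A.subtype
    set K := K₀.comap (QuotientGroup.mk' A) with hKdef
    have hAK : A ≤ K := le_comap_mk' A K₀
    have hK : IsPiNum π (A.relIndex K) := by
      rw [relIndex_comap_mk']
      exact hK₀.1
    obtain ⟨Y, hY, hXY⟩ := (hallD hX hK).exists_isPiHallOf_ge (pHall_pgroup hX)
      (le_inf ((pHall_sub hX).trans hAK) (normG X))
    have hF : A ⊔ (K ⊓ 𝐍 X) = K := by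
      refine le_antisymm (sup_le hAK inf_le_left) fun k hk => ?_
      obtain ⟨a, ha, e⟩ := conjA hA ((pHallJnorm (nA k)).2 hX) hX
      rw [← conj_mul_smul] at e
      have : k = a⁻¹ * (a * k) := by group
      rw [this]
      exact Subgroup.mul_mem_sup (A.inv_mem ha) ⟨K.mul_mem (hAK ha) hk, normP.2 e⟩
    refine ⟨Y, isPiHall_of_isPiHallOf (pHall_trans hY inf_le_left ?_) ?_⟩
    · have h1 : (K ⊓ 𝐍 X).relIndex K = (K ⊓ 𝐍 X).relIndex A := by
        rw [← relIndex_sup_eq (fun x _ => nA x), hF]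
      rw [h1, ← Subgroup.inf_relIndex_right]
      exact (pHall_index hX).of_dvd (Subgroup.relIndex_dvd_of_le_left _
        (le_inf (le_inf ((pHall_sub hX).trans hAK) (normG X)) (pHall_sub hX)))
    · rw [Subgroup.index_comap_of_surjective _ (QuotientGroup.mk'_surjective A)]
      exact fun r hr hd hπ => hK₀.2 r hr hπ hd
  · intro H H' hH hH'
    obtain ⟨g₀, hg⟩ := hQ.2 _ _ (isPiHall_map (QuotientGroup.mk'_surjective A) hH)
      (isPiHall_map (QuotientGroup.mk'_surjective A) hH')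
    obtain ⟨g, rfl⟩ := QuotientGroup.mk'_surjective A g₀
    rw [map_conj_eq_smul, ← map_conj_smul] at hg
    have h1 := isPiHall_conj hH g
    obtain ⟨a, ha, e⟩ := conjA hA (isPiHallOf_inf_of_normal h1 A) (isPiHallOf_inf_of_normal hH' A)
    rw [conjIg, normP.1 (nA a)] at e
    have h2 := isPiHall_conj h1 a
    have hK : IsPiNum π (A.relIndex (H' ⊔ A)) := by
      rw [Subgroup.relIndex_sup_right, ← card_map_mk']
      exact isPiSubgroup_map hH'.1 _
    have hle : g •ᶜ H ≤ H' ⊔ A := by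
      have := Subgroup.map_eq_map_iff.1 hg
      rw [QuotientGroup.ker_mk'] at this
      exact this ▸ le_sup_left
    obtain ⟨b, -, hb⟩ := (hallD (isPiHallOf_inf_of_normal hH' A) hK).exists_conj_eq_of_isPiHallOf
      (isPiHallOf_of_isPiHall h2 (le_inf (conj_subG (Subgroup.mem_sup_right ha) hle)
        (e ▸ normsI (normG _) fun x _ => nA x)))
      (isPiHallOf_of_isPiHall hH' (le_inf le_sup_left (normsI (normG _) fun x _ => nA x)))
    exact ⟨b * (a * g), by rw [map_conj_eq_smul, conj_mul_smul, conj_mul_smul, hb]⟩⟩
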