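import Cfsg.Agent.Gate.S5051
import Cfsg.Agent.Class.OddTrRank1

set_option autoImplicit false
open Cfsg Cfsg.Agent Cfsg.Lib.Class.RI

/-- S5051, conditional on the listed gates (universe list must stay the statement's own). -/
theorem Cfsg.Agent.Cond.S5051.{u} [Gate.S1175.{u}] : Gate.S5051.{u} := ⟨by
  intro G _ _ D hD d x hd hx
  have hx' := mem_oddPartners.1 hx
  have hb : d ∈ sameCommutingClass D d := mem_sameCommutingClass.2 ⟨hd, SameC.refl D d⟩
  have h := genOp_quot (rt_of hD.1) hD.2 hb hx'.1 (fun _ h => h.1) hx'.2 rfl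
    (fun s hs c hc _ => (mem_sameCommutingClass.1 hs).2 c hc)
    (Subgroup.subset_closure (Or.inl hb)) (Subgroup.subset_closure (Or.inr rfl))
  rcases h.isLS_or with (h | h) | h
  · exact Or.inl h
  · exact Or.inr (Or.inl h)
  · exact Or.inr (Or.inr h)⟩
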