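import Cfsg.Agent.Gate.S5053
import Cfsg.Agent.Class.RootInvNd

set_option autoImplicit false
open Cfsg Cfsg.Agent Cfsg.Lib.Class.RI

/-- S5053, conditional on the listed gates (universe list must stay the statement's own). -/
theorem Cfsg.Agent.Cond.S5053.{u} [Gate.S1175.{u}] : Gate.S5053.{u} := ⟨by
  intro G _ _ D hD hcl T hT
  exact Subgroup.isMulCommutative_closure fun a ha b hb =>
    ((nd_of hD hcl).commute_of_ti hT ha hb).eq⟩
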