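import Cfsg.Agent.Gate.S5054
import Cfsg.Agent.Class.RootInvNd

set_option autoImplicit false
open Cfsg Cfsg.Agent Cfsg.Lib.Class.RI

/-- S5054, conditional on the listed gates (universe list must stay the statement's own). -/
theorem Cfsg.Agent.Cond.S5054.{u} [Gate.S1175.{u}] : Gate.S5054.{u} := ⟨by
  intro G _ _ D hD hcl
  have h := nd_of hD hcl
  refine ⟨fun d hd x hx => ?_, fun a ha b hb => ?_⟩
  · have hx' := mem_oddPartners.1 hx
    exact h.eq_top hd hx'.1 hx'.2
      (fun w l => Subgroup.subset_closure (Or.inl ((mem_productPartners hd).2 l)))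
      (Subgroup.subset_closure (Or.inr rfl))
  · exact Relation.ReflTransGen.mono (fun _ _ l => prodAdj_iff.2 l) _ _ (h.ec ha hb)⟩
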