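import Cfsg.Agent.Gate.S5055
import Cfsg.Agent.Class.RootInvStr2

set_option autoImplicit false
open Cfsg Cfsg.Agent Cfsg.Lib.Class.RI Subgroup

/-- S5055, conditional on the listed gates (universe list must stay the statement's own). -/
theorem Cfsg.Agent.Cond.S5055.{u} [Gate.S1175.{u}] : Gate.S5055.{u} := ⟨by
  intro G _ _ D hD hcl _ _ hE d hd
  have h := nd_of hD hcl
  have hR := h.rt
  have hE' := hE_of hE hR
  have e1 : productPartners D d ∪ {d} = Wd D d := by
    ext w
    refine ⟨?_, fun hw => ?_⟩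
    · rintro (hw | rfl)
      · exact hR.mem_Wd_of_ln ((mem_productPartners hd).1 hw)
      · exact hR.self_mem_Wd hd
    · by_cases e : w = d
      · exact Or.inr e
      · exact Or.inl ((mem_productPartners hd).2 (h.ln_of_mem_Wd hE' hd hw e))
  have e2 : {w | IsIsolatedElem (OddAdj (commutingMembers D d)) (commutingMembers D d) w} =
      Wd D d := by
    ext w
    rw [Set.mem_setOf_eq, isolated_iff]
    exact ⟨fun hw => ⟨hw.1.1, hw.1.2.symm, fun y hy c => hw.2 y ⟨hy, c.symm⟩⟩,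
      fun hw => ⟨⟨hw.1, hw.2.1.symm⟩, fun y hy => hw.2.2 y hy.1 hy.2.symm⟩⟩
  have k1 : ∀ e ∈ D, SameC D d e → e ∈ Wd D d := fun e he s =>
    ⟨he, s.commute he, fun y hy c o => hR.nc he hy o ((s y hy).1 c)⟩
  have k2 : ∀ e ∈ D, SameC D d e → ∀ y ∈ closure (Wd D d), e * y = y * e := fun e he s y hy => by
    have : closure (Wd D d) ≤ centralizer {e} := (closure_le _).2 fun t ht =>
      mem_centralizer_singleton_iff.2 ((s t ht.1).1 ht.2.1).symm.eq
    exact (mem_centralizer_singleton_iff.1 (this hy)).symm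
  rw [e1, e2]
  refine ⟨rfl, ?_, le_antisymm ?_ ?_, ?_⟩
  · exact Set.ext fun w => ⟨fun hw => hR.mem_Wd hw.1 hw.2, fun hw => ⟨hw.1, subset_closure hw⟩⟩
  · refine commutator_closure_le (fun a ha b hb => ?_) fun n hn a ha => ?_
    · rw [commutator_eq_cm (hR.sq a ha.1) (hR.sq b hb.1)]
      by_cases c : Commute a b
      · rw [(cm_eq_one_iff (hR.sq a ha.1) (hR.sq b hb.1)).2 c]; exact one_mem _
      have f := hR.fr_of ha.1 hb.1 c (ha.2.2 b hb.1 hb.2.1)
      refine subset_closure (mem_sameCommutingClass.2 ⟨hR.cm_mem ha.1 hb.1 f, ?_⟩)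
      exact hR.sameC_cm h.cls (h.ln_of_mem_Wd hE' hd ha (by rintro rfl; exact c hb.2.1))
        (h.ln_of_mem_Wd hE' hd hb (by rintro rfl; exact c ha.2.1.symm)) f
    · have : sameCommutingSubgroup D d ≤ centralizer {a} := (closure_le _).2 fun t ht =>
        mem_centralizer_singleton_iff.2 (((mem_sameCommutingClass.1 ht).2 a ha.1).1 ha.2.1).eq
      exact mem_centralizer_singleton_iff.1 (this hn)
  · refine (closure_le _).2 fun e he => ?_
    obtain ⟨he, s⟩ := mem_sameCommutingClass.1 he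
    obtain ⟨a, ha, b, hb, f⟩ := h.fr
    obtain ⟨g, -, e3⟩ := h.cls _ (hR.cm_mem ha hb f) e he
    have ha' := h.cj ha g
    have hb' := h.cj hb g
    have f' := f.cj g
    rw [← cm_cj] at e3
    have k : ∀ w, Ln D e w → w ∈ closure (Wd D d) := fun w l => subset_closure
      ⟨l.r, (s w l.r).2 l.c, fun y hy c => hR.L0' l.symm hy ((s y hy).1 c)⟩
    have := commutator_mem_commutator (k _ (e3 ▸ (hR.ln_cm ha' hb' f').symm))
      (k _ (e3 ▸ (hR.ln_cm' ha' hb' f').symm))
    rwa [commutator_eq_cm (hR.sq _ ha') (hR.sq _ hb'), ← e3] at this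
  · ext e
    rw [mem_sameCommutingClass]
    exact ⟨fun he => ⟨he.1, subset_closure (k1 e he.1 he.2), k2 e he.1 he.2⟩,
      fun he => ⟨he.1, h.sameC_of_commute_ln hd he.1 (hR.mem_Wd he.1 he.2.1).2.1
        fun w l => he.2.2 w (subset_closure (hR.mem_Wd_of_ln l))⟩⟩⟩
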