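import Cfsg.Agent.Gate.S5372
import Cfsg.Agent.Gate.S1698
import Cfsg.Agent.Spor.Fi24Geom
import Cfsg.Agent.Spor.FiUniq

set_option autoImplicit false
open Cfsg Cfsg.Agent

/-- S5372, conditional on the listed gates. -/
theorem Cfsg.Agent.Cond.S5372.{u, v} [Gate.S1698] [Gate.Fi23DC] [Gate.Fi24Z.{u}] [Gate.Fi24Z.{v}] :
    Gate.S5372.{u, v} := ⟨by
  intro G₁ G₂ _ _ _ _ D₁ D₂ hD₁ hprim₁ hZ₁ _ _ _ _ hD₂ hprim₂ hZ₂ _ _ _ _ ht₁ ht₂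
  have : IsSimpleGroup (commutator Cfsg.Spor.Fi24) := Gate.S1698.out.1
  obtain ⟨f, hf, h⟩ := Cfsg.Lib.Spor.Fi.fi24Y hD₁ hprim₁ ht₁
  obtain ⟨f', hf', h'⟩ := Cfsg.Lib.Spor.Fi.fi24Y hD₂ hprim₂ ht₂
  exact Cfsg.Lib.Spor.Fi.exists_equiv_of_homs Cfsg.Lib.Spor.Fi.normal_cases_of_commutator hD₁ hprim₁ hZ₁
    hD₂ hprim₂ hZ₂ hf hf' (h .a) (h' .a)⟩
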