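import Cfsg.Agent.Gate.S5379
import Cfsg.Agent.Gate.S1719
import Cfsg.Agent.Spor.SzTwo

set_option autoImplicit false
open Cfsg Cfsg.Agent Cfsg.Lib.Spor.SuzL

/-- S5379, conditional on the listed gates (universe list must stay the statement's own). -/
theorem Cfsg.Agent.Cond.S5379.{u} [Gate.S1719.{u}] : Gate.S5379.{u} := ⟨by
  intro G _ _ z hz Q _ hF hQ hcard e hnwc
  obtain ⟨f, h⟩ := exists_md (Gate.S1719.out z hz Q hF hQ hcard e hnwc)
  refine ⟨_, _, h.order_z, h.order_t, h.not_conj_zt, fun x hx => ?_⟩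
  rcases h.inv (x := x) (by rw [← sq, ← hx, pow_orderOf_eq_one]) with a | a | a
  · rw [a] at hx; simp at hx
  exacts [Or.inl a.symm, Or.inr a.symm]⟩
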