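import Cfsg.Agent.Gate.S5380
import Cfsg.Agent.Gate.S1719
import Cfsg.Agent.Spor.SzThree

set_option autoImplicit false
open Cfsg Cfsg.Agent Cfsg.Lib.Spor.SuzL

/-- S5380, conditional on the listed gates (universe list must stay the statement's own). -/
theorem Cfsg.Agent.Cond.S5380.{u} [Gate.S1719.{u}] : Gate.S5380.{u} := ⟨by
  intro G _ _ z hz Q _ hF hQ hcard e hnwc Y hY hQY _
  obtain ⟨f, h, a⟩ := exists_md_y (Gate.S1719.out z hz Q hF hQ hcard e hnwc) hz hF hQ hcard hY hQY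
  have h2 := h.relIndex_y
  rw [a]
  rw [Lib.Known.SC.centralizer_zpowers] at h2 ⊢
  intro _ K _ _ hK
  obtain ⟨φ, a1, a2, a3⟩ := h.cent_y hK
  exact ⟨a3, Lib.Spor.SzK.quot_of_surj a1 a2, h2⟩⟩
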