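import Cfsg.Agent.Gate.S5381
import Cfsg.Agent.Gate.S1718
import Cfsg.Agent.SporChar.CoSuz

set_option autoImplicit false
open Cfsg Cfsg.Agent Cfsg.Lib.SporChar.CL

/-- S5381, conditional on the listed gates (universe list must stay the statement's own). -/
theorem Cfsg.Agent.Cond.S5381.{u} [Gate.S1718.{u}] : Gate.S5381.{u} := ⟨by
  intro G _ _ z hz Q _ hF hQ hcard e hnwc X hX hQX _ _ _ _ _ _ _ _ _
  obtain ⟨f, hf⟩ := reduce_three (Gate.S1718.out z hz Q hF hQ hcard e hnwc) hz hcard e hX hQX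
  exact cent_three f hf⟩
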