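import Cfsg.Agent.Gate.S5383
import Cfsg.Agent.Gate.S1719
import Cfsg.Agent.Spor.SzSeven

set_option autoImplicit false
open Cfsg Cfsg.Agent Cfsg.Lib.Spor.SuzL

/-- S5383, conditional on the listed gates (universe list must stay the statement's own). -/
theorem Cfsg.Agent.Cond.S5383.{u} [Gate.S1719.{u}] : Gate.S5383.{u} := ⟨by
  intro G _ _ z hz Q _ hF hQ hcard e hnwc B
  obtain ⟨f, h⟩ := exists_md (Gate.S1719.out z hz Q hF hQ hcard e hnwc)
  exact h.seven B⟩
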