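import Cfsg.Agent.Gate.S5385
import Cfsg.Agent.Gate.S1718
import Cfsg.Agent.SporChar.CoJ2

set_option autoImplicit false
open Cfsg Cfsg.Agent Cfsg.Lib.SporChar.CL

/-- S5385, conditional on the listed gates (universe list must stay the statement's own). -/
theorem Cfsg.Agent.Cond.S5385.{u} [Gate.S1718.{u}] : Gate.S5385.{u} := ⟨by
  intro G _ _ z hz Q _ hF hQ hcard e hnwc B hB _ hc _
  obtain ⟨f, hf⟩ := reduce_five (Gate.S1718.out z hz Q hF hQ hcard e hnwc) hz hcard e hB hc
  exact cent_five f hf⟩
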