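import Cfsg.Agent.Gate.S5406
import Cfsg.Agent.SporChar.MonsterPair

set_option autoImplicit false
open Cfsg Cfsg.Agent Subgroup Cfsg.Lib.SporChar Cfsg.Lib.Local
open scoped Pointwise

/-- S5406, conditional on the listed gates (universe list must stay the statement's own). -/
theorem Cfsg.Agent.Cond.S5406.{u} [Gate.S0402] [Gate.S5552] [Gate.S5593] : Gate.S5406.{u} := ⟨by
  intro G _ _ z Q _ hM s t hsQ htQ hs ht hs1 ht1
  obtain ⟨π, r, R, x, h, -⟩ := exists_monData hM
  obtain ⟨v, hv, e⟩ := h.four_of_isConj (mem_map_of_exists hsQ) hs hs1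
  obtain ⟨w, hw, e'⟩ := h.four_of_isConj (mem_map_of_exists htQ) ht ht1
  exact h.conj_four hv hw e e'⟩
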