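import Cfsg.Agent.Gate.S5407
import Cfsg.Agent.SporChar.MonsterPair

set_option autoImplicit false
open Cfsg Cfsg.Agent Subgroup Cfsg.Lib.SporChar Cfsg.Lib.Local
open scoped Pointwise

/-- S5407, conditional on the listed gates (universe list must stay the statement's own). -/
theorem Cfsg.Agent.Cond.S5407.{u} [Gate.S0402] [Gate.S5552] [Gate.S5593] : Gate.S5407.{u} := ⟨by
  intro G _ _ z Q _ hM e ψ hψ x
  have h := monData_of hM.1 hψ
  obtain ⟨g, hg, hne⟩ := hM.1.2.2.2.2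
  have hp := h.pre.pair hne (mem_map_of_exists hg)
  refine ⟨fun ⟨h1, h2⟩ => ?_, fun ⟨v, hv, e⟩ => ⟨h.isConj_of_four hp ⟨x, rfl, e⟩ hv, fun e' =>
    h.not_mem ⟨x, rfl, e⟩ (by omega) (by omega) (e'.symm ▸ mem_zpowers z)⟩⟩
  obtain ⟨v, ⟨y, hy, e⟩, hv⟩ := h.four_of_isConj ⟨_, x.2, rfl⟩ h1 h2
  exact ⟨v, hv, (Subtype.ext (Subtype.ext hy) : y = x) ▸ e⟩⟩
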