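import Cfsg.Agent.Gate.S5409
import Cfsg.Agent.SporChar.MonsterPair

set_option autoImplicit false
open Cfsg Cfsg.Agent Subgroup Cfsg.Lib.SporChar Cfsg.Lib.Local
open scoped Pointwise

/-- S5409, conditional on the listed gates (universe list must stay the statement's own). -/
theorem Cfsg.Agent.Cond.S5409.{u} [Gate.S0402] [Gate.S5552] [Gate.S5593] : Gate.S5409.{u} := ⟨by
  intro G _ _ z Q _ hM s hsQ hs hs1 g hg
  obtain ⟨π, r, R, x, h, -⟩ := exists_monData hM
  subst hg
  exact h.card_E (h.pre.pair hs1 (mem_map_of_exists hsQ))⟩
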