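import Cfsg.Agent.Gate.S5410
import Cfsg.Agent.SporChar.MonsterPair

set_option autoImplicit false
open Cfsg Cfsg.Agent Subgroup Cfsg.Lib.SporChar Cfsg.Lib.Local
open scoped Pointwise

/-- S5410, conditional on the listed gates (universe list must stay the statement's own). -/
theorem Cfsg.Agent.Cond.S5410.{u} [Gate.S0402] [Gate.S5552] [Gate.S5593] : Gate.S5410.{u} := ⟨by
  intro G _ _ z Q _ hM s hsQ hs hs1 g hg X E hX hE
  obtain ⟨π₀, r₀, -, -, h₀, -⟩ := exists_monData hM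
  subst hg
  have hp := h₀.pre.pair hs1 (mem_map_of_exists hsQ)
  obtain ⟨g₀, hg⟩ := h₀.exists_twist hp
  have h := h₀.twist g₀
  generalize (MulAut.conj (pCo g₀)⁻¹).toMonoidHom.comp π₀ = π at h
  have hk : Q = π.ker := Subgroup.ext fun x => by
    rw [MonoidHom.mem_ker, h.ker]
    exact (mem_map_iff_mem (subtype_injective _)).symm
  set e := QuotientGroup.liftEquiv Q h.surjπ hk
  have he : QuotientGroup.mk' Q = e.symm.toMonoidHom.comp π :=
    MonoidHom.ext fun x => e.eq_symm_apply.mpr rfl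
  rw [inf_comm, inf_subgroupOf_right, he, ← map_map] at hX
  rw [inf_subgroupOf_right, he, ← map_map] at hE
  obtain ⟨f, hf, h1, h2⟩ := h.exists_compl hp hg
  obtain ⟨h3, h4, -⟩ := h.A_eq hp hg
  have hi := e.symm.injective
  subst hX hE
  refine ⟨map_mono (MonData.A_le hp), ?_, ⟨⟨⟨?_⟩⟩, ?_⟩, ?_, f.range.map e.symm.toMonoidHom,
    map_mono (le_sup_right.trans h2.le), ?_, ?_, ⟨((f.range.equivMapOfInjective _ hi).symm.trans
      (MonoidHom.ofInjective hf).symm)⟩⟩
  · rintro _ ⟨x, hx, rfl⟩ _ ⟨y, hy, rfl⟩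
    exact ⟨_, MonData.A_normal hp x hx y hy, by simp⟩
  · rintro ⟨_, a, ha, rfl⟩ ⟨_, b, hb, rfl⟩
    refine Subtype.ext ?_
    simp only [coe_mul, ← map_mul, h.A_comm hp a ha b hb]
  · rintro _ ⟨a, ha, rfl⟩
    rw [← map_pow, h.A_sq hp a ha, map_one]
  · exact (card_map_of_injective hi).trans ((congrArg (fun A : Subgroup _ => Nat.card A) h3).trans h4)
  · rw [← map_inf _ _ _ hi]
    exact (congrArg _ h1).trans (Subgroup.map_bot _)
  · rw [← Subgroup.map_sup]
    exact congrArg _ h2⟩
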