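import Cfsg.Agent.Gate.S5411
import Cfsg.Agent.SporChar.MonsterPair

set_option autoImplicit false
open Cfsg Cfsg.Agent Subgroup Cfsg.Lib.SporChar Cfsg.Lib.Local
open scoped Pointwise

/-- S5411, conditional on the listed gates (universe list must stay the statement's own). -/
theorem Cfsg.Agent.Cond.S5411.{u} [Gate.S0402] [Gate.S5552] [Gate.S5593] [Gate.S0400] : Gate.S5411.{u} := ⟨by
  intro G _ _ z Q _ hM s t hsQ htQ hs2 ht2 hs ht
  obtain ⟨π, r, R, x, h, hp⟩ := exists_monData hM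
  obtain ⟨v, hv, e⟩ := h.two_of_not_isConj hp (mem_map_of_exists hsQ) hs2 hs
  obtain ⟨w, hw, e'⟩ := h.two_of_not_isConj hp (mem_map_of_exists htQ) ht2 ht
  exact h.conj_two hv hw e e'⟩
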