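import Cfsg.Agent.Gate.S5412
import Cfsg.Agent.SporChar.MonsterBaby

set_option autoImplicit false
open Cfsg Cfsg.Agent Subgroup Cfsg.Lib.SporChar Cfsg.Lib.Local

/-- S5412, conditional on the listed gates (universe list must stay the statement's own). -/
theorem Cfsg.Agent.Cond.S5412.{u} [Gate.S0402] [Gate.S5552] [Gate.S5593] [Gate.S0400] :
    Gate.S5412.{u} := ⟨by
  intro G _ _ z Q _ hM t htQ ht2 ht _
  obtain ⟨π, r, R, x, h, hp⟩ := exists_monData hM
  obtain ⟨v, hv, e⟩ := h.two_of_not_isConj hp (mem_map_of_exists htQ) ht2 ht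
  obtain ⟨R', s', hp', htR⟩ := h.exists_pair_mem hp hv e
  obtain ⟨g, rfl⟩ := Gate.S0400.out Spor.leechU v sqNorm_U e
  exact (h.twist g).isOfBabyMonsterType hv ht2 ht hp' htR (QuotientGroup.mk'_surjective _)
    (QuotientGroup.ker_mk' _)⟩
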