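import Cfsg.Agent.Gate.S5530
import Cfsg.Agent.Gate.MonAm
import Cfsg.Agent.Mon.LMon

set_option autoImplicit false

open Cfsg Cfsg.Agent

theorem Cfsg.Agent.Cond.S5530 [Gate.MonAm] : Gate.S5530 :=
  ⟨let ⟨_, h⟩ := Gate.MonAm.out; h.s5530⟩
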