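import Cfsg.Agent.Gate.S5531
import Cfsg.Agent.Gate.MonAm
import Cfsg.Agent.Mon.LFive

set_option autoImplicit false

open Cfsg Cfsg.Agent

theorem Cfsg.Agent.Cond.S5531 [Gate.MonAm] : Gate.S5531 :=
  ⟨let ⟨_, h⟩ := Gate.MonAm.out; h.s5531⟩
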