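import Cfsg.Agent.Gate.S5536
import Cfsg.Agent.Gate.MonAm
import Cfsg.Agent.Mon.LCo3

set_option autoImplicit false
open Cfsg Cfsg.Agent

/-- S5536, conditional on the listed gates (universe list must stay the statement's own). -/
theorem Cfsg.Agent.Cond.S5536 [Gate.MonAm] : Gate.S5536 :=
  ⟨let ⟨_, h⟩ := Gate.MonAm.out; h.s5536⟩
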