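import Cfsg.Agent.Gate.S5540
import Cfsg.Agent.Gate.MonAm
import Cfsg.Agent.Mon.DceFin
import Cfsg.Agent.Mon.RNorton

set_option autoImplicit false
open Cfsg Cfsg.Agent Cfsg.Lib.Mon

/-- S5540, conditional on the listed gates (universe list must stay the statement's own). -/
theorem Cfsg.Agent.Cond.S5540 [Gate.MonAm] : Gate.S5540 := ⟨by
  obtain ⟨A, h⟩ := Gate.MonAm.out
  obtain ⟨π, hi, h1, h2⟩ := h.exists_rep
  have : FiniteDimensional ℝ V := Module.finite_of_finrank_pos (by rw [finrank_V]; norm_num)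
  exact Rp.RepD.norton ⟨h.finite, hi, h1, h2, h.gen, h.resM⟩
    (LinearEquiv.ofFinrankEq (Fin 196883 → ℝ) (LinearMap.ker trV)
      (by rw [finrank_ker_trV, Module.finrank_fin_fun]))⟩
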