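import Cfsg.Agent.Gate.S5576
import Cfsg.Agent.SporChar.J4DZ
import Cfsg.Agent.SporChar.J4DD

set_option autoImplicit false
open Cfsg Cfsg.Agent Cfsg.Lib.SporChar

/-- S5576, conditional on the listed gates (universe list must stay the statement's own). -/
theorem Cfsg.Agent.Cond.S5576.{u} [Gate.S1703] [Gate.S5629.{u}] : Gate.S5576.{u} := ⟨by
  intro G _ _ _ _ hJ
  obtain ⟨z, x, g, w, U, p, v, ρ, κ, t, -, h⟩ := J4D.exists_el hJ
  exact h.two_eleven⟩
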