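import Cfsg.Agent.Gate.S5585
import Cfsg.Agent.Gate.S1703
import Cfsg.Agent.SporChar.J4PMain

set_option autoImplicit false
open Cfsg Cfsg.Agent Cfsg.Lib.SporChar

/-- S5585, conditional on the listed gates (universe list must stay the statement's own). -/
theorem Cfsg.Agent.Cond.S5585.{u} [Gate.S1703] [Gate.S5563.{u}] [Gate.S5564.{u}] :
    Gate.S5585.{u} := ⟨by
  intro G _ _ _ _ t Q N _ _ hS _ hQN hN hns he
  have := Gate.S1703.out.1
  obtain ⟨P, h⟩ := J4.jankoFour_of_setting hS hQN hN hns he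
  exact J4P.iso h⟩
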