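import Cfsg.Agent.Gate.S5589
import Cfsg.Agent.Gate.YBij
import Cfsg.Agent.Gate.YInj
import Cfsg.Agent.Mon.YWr

set_option autoImplicit false
open Cfsg Cfsg.Agent

theorem Cfsg.Agent.Cond.S5589 [Gate.YBij] [Gate.YInj] : Gate.S5589 := ⟨by
  obtain ⟨M, _, A, g, u, -, -, hY⟩ := Gate.YBij.out
  obtain ⟨π, hπ⟩ := hY.exists_iso (Gate.YInj.out M g u hY)
  exact hY.wreath (hπ .a)⟩
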