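import Cfsg.Agent.Gate.S5811
import Cfsg.Agent.Class.UNum

set_option autoImplicit false
open Cfsg Cfsg.Agent Cfsg.Lib.Class.TvP Cfsg.Lib.Class.Asch

/-- S5811, conditional on the listed gates (universe list must stay the statement's own). -/
theorem Cfsg.Agent.Cond.S5811.{u} [Gate.AschU.{u}] : Gate.S5811.{u} := ⟨by
  intro F _ _ q hF H hH
  rcases uMax_of_gate hF (by omega) (by omega) hH with h | h | ⟨t, k, D, h1, h2, hD, h⟩ |
    ⟨k, D, h1, -⟩ | ⟨r, K, hr, -, h1, hK, hK', h⟩ | ⟨n₁, n₂, e, P, f₁, f₂, h1, h2, h3, -⟩ | h |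
    ⟨F₀, P, hq, h⟩ | ⟨F₀, P, ζ, h1, -⟩ | ⟨r, R, p, e, k, hR, hR', hRf, -, -, hq, hm, -, h1, h2, h⟩ |
    ⟨k, t, e, P, f₁, h1, h2, h3, -⟩ | h
  · exact Or.inl h
  · exact Or.inr (Or.inl h)
  · obtain rfl : t = 7 := by
      rcases (Nat.dvd_prime (by norm_num)).1 (Dvd.intro _ h1.symm) with h | h <;> omega
    obtain rfl : k = 1 := by omega
    exact Or.inr (Or.inr (Or.inl ⟨D, hD, h⟩))
  · omega
  · obtain rfl : r = 7 := (Nat.prime_dvd_prime_iff_eq hr (by norm_num)).1 h1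
    exact Or.inr (Or.inr (Or.inr (Or.inl ⟨K, hK, hK', h⟩)))
  · rcases (Nat.dvd_prime (by norm_num)).1 (Dvd.intro _ h1.symm) with rfl | rfl <;> omega
  · exact Or.inr (Or.inr (Or.inr (Or.inr (Or.inl h))))
  · exact Or.inr (Or.inr (Or.inr (Or.inr (Or.inr (Or.inl ⟨hq, F₀, P, h⟩)))))
  · exact absurd h1 (by decide)
  · obtain ⟨rfl, rfl⟩ := eq_of_prime_eq_pow (by norm_num) h1
    obtain ⟨-, hz, hc⟩ := h2.resolve_right (by omega)
    refine Or.inr (Or.inr (Or.inr (Or.inr (Or.inr (Or.inr (Or.inl ⟨p, R, hm.1, hm.2.1, ?_, hR',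
      absIrr_of_env_eq_top hR.env_top, hRf, hc, hz, h⟩))))))
    rw [hz] at hm
    obtain ⟨a1, a2, a3, a4⟩ := minField_mod hm (by norm_num)
    have key : ∀ a < 7, ∀ e < 4, 0 < 2 * e → a ^ (2 * e) % 7 = 1 →
        (∀ d < 2 * e, 0 < d → a ^ d % 7 ≠ 1) → (e = 1 ∧ a = 6) ∨ (e = 3 ∧ (a = 3 ∨ a = 5)) := by
      intro a ha e he
      interval_cases a <;> interval_cases e <;> decide
    rcases key _ (Nat.mod_lt _ (by norm_num)) e (by omega) a1 a3 a4 with ⟨rfl, h⟩ | ⟨rfl, h⟩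
    · exact Or.inl ⟨by rw [hq, pow_one], h⟩
    · exact Or.inr ⟨hq, h⟩
  · obtain ⟨rfl, rfl⟩ := eq_of_prime_eq_pow (by norm_num) h1
    omega
  · exact Or.inr (Or.inr (Or.inr (Or.inr (Or.inr (Or.inr (Or.inr h))))))⟩
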