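import Cfsg.Agent.Gate.S5820
import Cfsg.Agent.Class.UTwo

set_option autoImplicit false
open Cfsg Cfsg.Agent Cfsg.Lib.Class Cfsg.Lib.Class.TvP Cfsg.Lib.Class.Asch

/-- S5820, conditional on the listed gates (universe list must stay the statement's own). -/
theorem Cfsg.Agent.Cond.S5820.{u} [Gate.AschU.{u}] : Gate.S5820.{u} := ⟨by
  intro F _ _ q hF H hH
  rcases uMax_of_gate hF (by omega) (by omega) hH with h | h | ⟨t, k, D, h1, h2, hD, h⟩ |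
    ⟨k, D, h1, h⟩ | ⟨r, K, hr, hr', h1, h⟩ | ⟨n₁, n₂, e, P, f₁, f₂, h1, h2, h3, hf₁, hf₂, hT, h⟩ |
    h | ⟨F₀, P, hq, h⟩ | ⟨F₀, P, ζ, -, h⟩ |
    ⟨r, R, p, e, k, hR, hR', hRf, -, -, hq, hm, hk, h1, h2, h⟩ |
    ⟨k, t, e, P, f₁, h1, h2, h3, -⟩ | h
  · exact Or.inl h
  · exact Or.inr (Or.inl h)
  · have ht : t ≤ 8 := Nat.le_of_dvd (by norm_num) (Dvd.intro _ h1.symm)
    have : (t = 8 ∧ k = 1) ∨ (t = 4 ∧ k = 2) ∨ (t = 2 ∧ k = 4) := by interval_cases t <;> omega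
    rcases this with ⟨rfl, rfl⟩ | ⟨rfl, rfl⟩ | ⟨rfl, rfl⟩
    · exact Or.inr (Or.inr (Or.inl ⟨D, hD, h⟩))
    · exact Or.inr (Or.inr (Or.inr (Or.inl ⟨three_le_of_planes hF hD (h ▸ hH), D, hD, h⟩)))
    · exact Or.inr (Or.inr (Or.inr (Or.inr (Or.inl ⟨D, hD, h⟩))))
  · obtain rfl : k = 4 := by omega
    exact Or.inr (Or.inr (Or.inr (Or.inr (Or.inr (Or.inl ⟨D, h⟩)))))
  · obtain rfl : r = 2 := (Nat.prime_dvd_prime_iff_eq hr (by norm_num)).1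
      (hr.dvd_of_dvd_pow (n := 3) h1)
    exact absurd hr' (by decide)
  · have ht : n₁ ≤ 8 := Nat.le_of_dvd (by norm_num) (Dvd.intro _ h1.symm)
    obtain ⟨rfl, rfl⟩ : n₁ = 2 ∧ n₂ = 4 := by interval_cases n₁ <;> omega
    exact Or.inr (Or.inr (Or.inr (Or.inr (Or.inr (Or.inr (Or.inl 
      ⟨three_le_of_tensor hF (by norm_num) hf₁ hf₂ hT (h ▸ hH), e, P, f₁, f₂, hf₁, hf₂, hT, h⟩))))))
  · exact Or.inr (Or.inr (Or.inr (Or.inr (Or.inr (Or.inr (Or.inr (Or.inl h)))))))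
  · exact Or.inr (Or.inr (Or.inr (Or.inr (Or.inr (Or.inr (Or.inr (Or.inr (Or.inr (Or.inl 
      ⟨hq, F₀, P, h⟩)))))))))
  · exact Or.inr (Or.inr (Or.inr (Or.inr (Or.inr (Or.inr (Or.inr (Or.inr (Or.inl 
      ⟨F₀, P, ζ, h⟩))))))))
  · obtain rfl : r = 2 := (Nat.prime_dvd_prime_iff_eq hR.prime (by norm_num)).1
      (hR.prime.dvd_of_dvd_pow (n := 3) (h1 ▸ dvd_pow_self r (by omega) : r ∣ 8))
    obtain rfl : k = 3 := Nat.pow_right_injective (le_refl 2) h1.symm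
    obtain ⟨-, rfl, hz, hc⟩ := h2.resolve_left (by simp)
    rw [hz] at hm
    exact Or.inr (Or.inr (Or.inr (Or.inr (Or.inr (Or.inr (Or.inr (Or.inr (Or.inr (Or.inr (Or.inl 
      ⟨p, R, hm.1, by rw [hq, pow_one], mod_four_of_minField hm, hR',
        absIrr_of_env_eq_top hR.env_top, hRf, hc, hz, h⟩))))))))))
  · exact absurd (le_of_eq_pow h1 h2 h3 (by norm_num)) (by norm_num)
  · exact Or.inr (Or.inr (Or.inr (Or.inr (Or.inr (Or.inr (Or.inr (Or.inr (Or.inr (Or.inr (Or.inr h))))))))))⟩
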