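import Cfsg.Agent.Gate.S5832
import Cfsg.Agent.Class.UNum

set_option autoImplicit false
open Cfsg Cfsg.Agent Cfsg.Lib.Class Cfsg.Lib.Class.TvP Cfsg.Lib.Class.Asch

/-- S5832, conditional on the listed gates (universe list must stay the statement's own). -/
theorem Cfsg.Agent.Cond.S5832.{u} [Gate.AschU.{u}] : Gate.S5832.{u} := ⟨by
  intro F _ _ q hF H hH
  have hq2 := two_le_of_card_sq hF
  rcases uMax_of_gate hF (by omega) (by omega) hH with h | h | ⟨t, k, D, h1, h2, hD, h⟩ |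
    ⟨k, D, h1, -⟩ | ⟨r, K, hr, -, h1, hK, hK', h⟩ | ⟨n₁, n₂, e, P, f₁, f₂, h1, h2, h3, -⟩ | h |
    ⟨F₀, P, hq, h⟩ | ⟨F₀, P, ζ, h1, -⟩ | ⟨r, R, p, e, k, hR, hR', hRf, -, -, hq, hm, -, h1, h2, h⟩ |
    ⟨k, t, e, P, f₁, h1, h2, h3, h4, h⟩ | h
  · exact Or.inl h
  · exact Or.inr (Or.inl h)
  · have ht : t ≤ 9 := Nat.le_of_dvd (by norm_num) (Dvd.intro _ h1.symm)
    have : (t = 9 ∧ k = 1) ∨ (t = 3 ∧ k = 3) := by interval_cases t <;> omega
    rcases this with ⟨rfl, rfl⟩ | ⟨rfl, rfl⟩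
    · exact Or.inr (Or.inr (Or.inl ⟨D, hD, h⟩))
    · exact Or.inr (Or.inr (Or.inr (Or.inl ⟨D, hD, h⟩)))
  · omega
  · obtain rfl : r = 3 := (Nat.prime_dvd_prime_iff_eq hr (by norm_num)).1
      (hr.dvd_of_dvd_pow (n := 2) h1)
    exact Or.inr (Or.inr (Or.inr (Or.inr (Or.inl ⟨K, hK, hK', h⟩))))
  · have ht : n₁ ≤ 9 := Nat.le_of_dvd (by norm_num) (Dvd.intro _ h1.symm)
    interval_cases n₁ <;> omega
  · exact Or.inr (Or.inr (Or.inr (Or.inr (Or.inr (Or.inl h)))))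
  · exact Or.inr (Or.inr (Or.inr (Or.inr (Or.inr (Or.inr (Or.inl ⟨hq, F₀, P, h⟩))))))
  · exact absurd h1 (by decide)
  · obtain rfl : r = 3 := by
      refine (Nat.prime_dvd_prime_iff_eq hR.prime (by norm_num)).1
        (hR.prime.dvd_of_dvd_pow (n := 2) (h1 ▸ dvd_pow_self r ?_ : r ∣ 9))
      rintro rfl
      simp at h1
    obtain rfl : k = 2 := Nat.pow_right_injective (by norm_num : 2 ≤ 3) h1.symm
    obtain ⟨-, hz, hc⟩ := h2.resolve_right (by omega)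
    rw [hz] at hm
    obtain ⟨a1, a2, a3, a4⟩ := minField_mod hm (by norm_num)
    obtain rfl : e = 1 := by omega
    refine Or.inr (Or.inr (Or.inr (Or.inr (Or.inr (Or.inr (Or.inr (Or.inl ⟨p, R, hm.1,
      by rw [hq, pow_one], ?_, hR', absIrr_of_env_eq_top hR.env_top, hRf, hc, hz, h⟩)))))))
    have a5 := a4 1 (by norm_num) (by norm_num)
    have := Nat.mod_lt p (by norm_num : 0 < 3)
    interval_cases p % 3 <;> simp_all
  · have hk : k ≤ 3 := by
      by_contra hk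
      have := Nat.pow_le_pow_left (show 4 ≤ k by omega) t
      have := Nat.pow_le_pow_right (show 0 < 4 by norm_num) h3
      omega
    obtain rfl : k = 3 := by omega
    obtain rfl : t = 2 := Nat.pow_right_injective (by norm_num : 2 ≤ 3) h1.symm
    exact Or.inr (Or.inr (Or.inr (Or.inr (Or.inr (Or.inr (Or.inr (Or.inr (Or.inl
      ⟨by omega, e, P, f₁, h⟩))))))))
  · exact Or.inr (Or.inr (Or.inr (Or.inr (Or.inr (Or.inr (Or.inr (Or.inr (Or.inr h))))))))⟩
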