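import Cfsg.Agent.Gate.S5853
import Cfsg.Agent.Gate.AschLin
import Cfsg.Agent.Class.AL.Main

set_option autoImplicit false
open Cfsg Cfsg.Agent Cfsg.Lib.Class.AL

/-- S5853, conditional on the subgroup structure theorem for general linear groups. -/
theorem Cfsg.Agent.Cond.S5853.{u} [Gate.AschLin.{u}] : Gate.S5853.{u} := ⟨by
  intro F _ _ H hH
  have h3 : 3 ≤ Fintype.card (Fin 11) := by simp
  rcases linMax h3 hH (Gate.AschLin.out h3 H) with h | ⟨t, m, D, hD, hn, a1, a2, a3, a4, h⟩ |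
    ⟨r, K, hr, hn, a1, hK, h⟩ | ⟨n₁, n₂, e, P, h1, h2, hn, a1, h⟩ | h | ⟨r, k, R, hr, hk, hn, hR, h⟩ |
    ⟨m, t, e, P, hm, ht, hn, h⟩ | h | ⟨hn, h⟩ | h | h
  · exact Or.inl h
  · rw [Fintype.card_fin] at hn
    have := hD.two_le
    have hm := hD.pos
    have hm' : m ≤ 11 := by nlinarith
    have : (t = 11 ∧ m = 1) := by
      interval_cases m <;> omega
    rcases this with ⟨rfl, rfl⟩
    · exact Or.inr <| Or.inl ⟨a1 rfl, D, hD, h⟩
  · rw [Fintype.card_fin] at hn a1
    have := Nat.le_of_dvd (by norm_num) hn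
    have : r = 11 := by
      interval_cases r <;> first | omega | (norm_num at hr)
    rcases this with rfl
    · exact Or.inr <| Or.inr <| Or.inl ⟨K, hK, h⟩
  · rw [Fintype.card_fin] at hn
    have : n₁ ≤ 3 := by nlinarith
    exfalso
    interval_cases n₁ <;> omega
  · exact Or.inr <| Or.inr <| Or.inr <| Or.inl h
  · rw [Fintype.card_fin] at hn
    obtain rfl := eq_of_prime_pow (s := 11) hr (by norm_num) hn (by norm_num)
    exact Or.inr <| Or.inr <| Or.inr <| Or.inr <| Or.inl ⟨IsLinearSymplecticTypeData.eleven h3 hR, R, hR, h⟩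
  · rw [Fintype.card_fin] at hn
    exact absurd (pow_eq_nine_of_le hm ht hn (by norm_num)).1 (by norm_num)
  · exact Or.inr <| Or.inr <| Or.inr <| Or.inr <| Or.inr <| Or.inl h
  · exact absurd hn (by rw [Fintype.card_fin]; decide)
  · exact Or.inr <| Or.inr <| Or.inr <| Or.inr <| Or.inr <| Or.inr <| Or.inl h
  · exact Or.inr <| Or.inr <| Or.inr <| Or.inr <| Or.inr <| Or.inr <| Or.inr <| h⟩
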