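import Cfsg.Agent.Gate.S5865
import Cfsg.Agent.Class.UTwo

set_option autoImplicit false
open Cfsg Cfsg.Agent Cfsg.Lib.Class Cfsg.Lib.Class.TvP Cfsg.Lib.Class.Asch

/-- S5865, conditional on the listed gates (universe list must stay the statement's own). -/
theorem Cfsg.Agent.Cond.S5865.{u} [Gate.AschU.{u}] : Gate.S5865.{u} := ⟨by
  intro F _ _ q hF H hH
  rcases uMax_of_gate hF (by omega) (by omega) hH with h | h | ⟨t, k, D, h1, h2, hD, h⟩ |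
    ⟨k, D, h1, h⟩ | ⟨r, K, hr, hr', h1, h⟩ | ⟨n₁, n₂, e, P, f₁, f₂, h1, h2, h3, hf₁, hf₂, hT, h⟩ |
    h | ⟨F₀, P, hq, h⟩ | ⟨F₀, P, ζ, -, h⟩ |
    ⟨r, R, p, e, k, hR, -, -, -, -, -, -, hk, h1, -⟩ |
    ⟨k, t, e, P, f₁, h1, h2, h3, -⟩ | h
  · exact Or.inl h
  · exact Or.inr (Or.inl h)
  · have ht : t ≤ 12 := Nat.le_of_dvd (by norm_num) (Dvd.intro _ h1.symm)
    have : (t = 12 ∧ k = 1) ∨ (t = 6 ∧ k = 2) ∨ (t = 4 ∧ k = 3) ∨ (t = 3 ∧ k = 4) ∨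
      (t = 2 ∧ k = 6) := by interval_cases t <;> omega
    rcases this with ⟨rfl, rfl⟩ | ⟨rfl, rfl⟩ | ⟨rfl, rfl⟩ | ⟨rfl, rfl⟩ | ⟨rfl, rfl⟩
    · exact Or.inr (Or.inr (Or.inl ⟨D, hD, h⟩))
    · exact Or.inr (Or.inr (Or.inr (Or.inl ⟨three_le_of_planes hF hD (h ▸ hH), D, hD, h⟩)))
    · exact Or.inr (Or.inr (Or.inr (Or.inr (Or.inl ⟨D, hD, h⟩))))
    · exact Or.inr (Or.inr (Or.inr (Or.inr (Or.inr (Or.inl ⟨D, hD, h⟩)))))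
    · exact Or.inr (Or.inr (Or.inr (Or.inr (Or.inr (Or.inr (Or.inl ⟨D, hD, h⟩))))))
  · obtain rfl : k = 6 := by omega
    exact Or.inr (Or.inr (Or.inr (Or.inr (Or.inr (Or.inr (Or.inr (Or.inl ⟨D, h⟩)))))))
  · have ht : r ≤ 12 := Nat.le_of_dvd (by norm_num) h1
    obtain rfl : r = 3 := by interval_cases r <;> first | rfl | (revert hr hr' h1; decide)
    exact Or.inr (Or.inr (Or.inr (Or.inr (Or.inr (Or.inr (Or.inr (Or.inr (Or.inl ⟨K, h⟩))))))))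
  · have ht : n₁ ≤ 12 := Nat.le_of_dvd (by norm_num) (Dvd.intro _ h1.symm)
    have : (n₁ = 2 ∧ n₂ = 6) ∨ (n₁ = 3 ∧ n₂ = 4) := by interval_cases n₁ <;> omega
    rcases this with ⟨rfl, rfl⟩ | ⟨rfl, rfl⟩
    · exact Or.inr (Or.inr (Or.inr (Or.inr (Or.inr (Or.inr (Or.inr (Or.inr (Or.inr (Or.inl 
        ⟨three_le_of_tensor hF (by norm_num) hf₁ hf₂ hT (h ▸ hH), e, P, f₁, f₂, hf₁, hf₂, hT, h⟩)))))))))
    · exact Or.inr (Or.inr (Or.inr (Or.inr (Or.inr (Or.inr (Or.inr (Or.inr (Or.inr (Or.inr (Or.inl 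
        ⟨e, P, f₁, f₂, hf₁, hf₂, hT, h⟩))))))))))
  · exact Or.inr (Or.inr (Or.inr (Or.inr (Or.inr (Or.inr (Or.inr (Or.inr (Or.inr (Or.inr (Or.inr (Or.inl 
      h)))))))))))
  · exact Or.inr (Or.inr (Or.inr (Or.inr (Or.inr (Or.inr (Or.inr (Or.inr (Or.inr (Or.inr (Or.inr (Or.inr (Or.inr (Or.inl 
      ⟨hq, F₀, P, h⟩)))))))))))))
  · exact Or.inr (Or.inr (Or.inr (Or.inr (Or.inr (Or.inr (Or.inr (Or.inr (Or.inr (Or.inr (Or.inr (Or.inr (Or.inl 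
      ⟨F₀, P, ζ, h⟩))))))))))))
  · have a1 := (Nat.prime_dvd_prime_iff_eq Nat.prime_two hR.prime).1
      (Nat.prime_two.dvd_of_dvd_pow (h1 ▸ by norm_num : 2 ∣ r ^ k))
    have a2 := (Nat.prime_dvd_prime_iff_eq Nat.prime_three hR.prime).1
      (Nat.prime_three.dvd_of_dvd_pow (h1 ▸ by norm_num : 3 ∣ r ^ k))
    omega
  · exact absurd (le_of_eq_pow h1 h2 h3 (by norm_num)) (by norm_num)
  · exact Or.inr (Or.inr (Or.inr (Or.inr (Or.inr (Or.inr (Or.inr (Or.inr (Or.inr (Or.inr (Or.inr (Or.inr (Or.inr (Or.inr h)))))))))))))⟩
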